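import Cfsg.Agent.Chars.Ito.TwoPrimeChar
import Cfsg.Agent.S0719
import Cfsg.Agent.Dickson.Sixty

/-!
# Degree twice a prime: the degree is ten and the group has order sixty

`TwoPrime.eq_five_and_card`.
-/

set_option autoImplicit false

namespace CfsgLib.Chars.Ito

open Cfsg CfsgLib.Chars CfsgLib.Chars.PermChar CfsgLib.FrobSchur
open scoped ComplexConjugate

universe u v

namespace TwoPrime

variable {G : Type u} [Group G] [Fintype G] {X : Type v} [MulAction G X] [Fintype X]
  {p : ℕ} [hp : Fact p.Prime] {P : Subgroup G} (h : TwoPrime G X P p)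
include h hp

/-- Elements of order `p` are conjugate into `P`. -/
theorem exists_conj_mem {t : G} (ht : orderOf t = p) : ∃ y : G, y⁻¹ * t * y ∈ P := by
  let S : Sylow p G := IsPGroup.toSylow (IsPGroup.of_card (n := 1) (by rw [pow_one, h.dih.card]))
    h.ndvd
  obtain ⟨Q, hQ⟩ := (IsPGroup.of_card (p := p) (G := Subgroup.zpowers t) (n := 1)
    (by rw [Nat.card_zpowers, ht, pow_one])).exists_le_sylow
  obtain ⟨y, hy⟩ := MulAction.exists_smul_eq G Q S
  refine ⟨y⁻¹, ?_⟩
  have hmem : MulAut.conj y t ∈ ((y • Q : Sylow p G) : Subgroup G) := by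
    rw [Sylow.coe_subgroup_smul, Subgroup.pointwise_smul_def]
    exact Subgroup.mem_map_of_mem _ (hQ (Subgroup.mem_zpowers t))
  rw [hy] at hmem
  simpa using (show MulAut.conj y t ∈ P from hmem)

/-- The integral character of degree `p - 1`. -/
theorem exists_int_char : ∃ (x : G → ℤ) (χ : IrrCharacter G), (∀ g, (χ : G → ℂ) g = x g) ∧
    x 1 = (p : ℤ) - 1 ∧
    (∀ g y : G, y⁻¹ * g * y ∈ P → g ≠ 1 → x g = -1) ∧
    (∀ g : G, (∀ y, y⁻¹ * g * y ∉ P) → x (g * g) = x g ^ 2 - ((p : ℤ) - 1) * (x g - 1)) ∧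
    ∑ g, x g = 0 ∧ ∑ g, x g ^ 2 = (Nat.card G : ℤ) ∧
    ∀ a₀ : X, ∃ a : ℕ, 0 < a ∧ p = 2 * a ^ 2 + 2 * a + 1 ∧
      (2 * a + 1) ∣ Nat.card (MulAction.stabilizer G a₀) := by
  classical
  haveI := h.prim
  haveI := h.faith
  have hD := h.dih
  have hp5 := h.five
  obtain ⟨χ, θ, hπ, hχ1, hθ1, hχne, hθne, hθχ, hχint, hθint, hχP, hex⟩ := h.exists_chars
  choose x hx using hχint
  haveI := Fintype.ofFinite P
  haveI := isCyclic_of_prime_card hD.card
  haveI : IsMulCommutative P := IsCyclic.isMulCommutative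
  haveI : Fintype (P →* ℂˣ) := Fintype.ofFinite _
  haveI : Nonempty (IrrCharacter G) := ⟨oneChar G⟩
  obtain ⟨x₀⟩ : Nonempty X := Fintype.card_pos_iff.1 (by rw [h.cardX]; omega)
  have hx1 : x 1 = (p : ℤ) - 1 := by
    have := hx 1
    rw [hχ1] at this
    exact_mod_cast this.symm
  have hconjx : ∀ g, conj ((χ : G → ℂ) g) = (χ : G → ℂ) g := fun g => by rw [hx]; simp
  have hT : ∀ g y : G, y⁻¹ * g * y ∈ P → g ≠ 1 → x g = -1 := fun g y hy hg => by
    have hne : y⁻¹ * g * y ≠ 1 := fun e => hg (by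
      have := congrArg (fun t => y * t * y⁻¹) e
      simpa [mul_assoc] using this)
    have := hχP _ hy hne
    rw [Induced.classFun_inv_conj (isClassFunction_coe χ), hx] at this
    exact_mod_cast this
  -- the fixed point sums
  have hG0 : (Nat.card G : ℂ) ≠ 0 := natCard_ne_zero
  have hsum0 : ∑ g, x g = 0 := by
    have := classInner_of_ne hχne
    simp only [classInner, oneChar_apply, map_one, mul_one, hx, mul_eq_zero, inv_eq_zero,
      or_iff_right hG0] at this
    exact_mod_cast this
  have hsum2 : ∑ g, x g ^ 2 = (Nat.card G : ℤ) := by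
    have := classInner_self χ
    rw [classInner, inv_mul_eq_iff_eq_mul₀ hG0, mul_one] at this
    have e : ((∑ g, x g ^ 2 : ℤ) : ℂ) = ((Nat.card G : ℤ) : ℂ) := by
      rw [Int.cast_natCast, ← this, Int.cast_sum]
      refine Finset.sum_congr rfl fun g _ => ?_
      rw [hconjx, hx, Int.cast_pow, sq]
    exact_mod_cast e
  -- the indicator
  have hind : indicator (χ : G → ℂ) = 1 := by
    have hreal : ∀ g, ((χ : G → ℂ) g).im = 0 := fun g => by rw [hx]; simp
    rcases irr_sq_eq_one_of_real χ.2 hreal with e | e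
    · exact e
    exfalso
    let f : G → ℕ := fun g => Nat.card (MulAction.fixedBy X g)
    have hf : ∀ g, fixChar G X g = (f g : ℂ) := fun g => rfl
    have hfsum : ∑ g, f g = Nat.card G := by
      have := classInner_fixChar_one (G := G) (Ω := X) x₀
      simp only [classInner, map_one, mul_one, hf] at this
      rw [inv_mul_eq_iff_eq_mul₀ hG0, mul_one] at this
      exact_mod_cast this
    have hle : ∀ g, f g ≤ f (g * g) := fun g => Nat.card_le_card_of_injective
      (fun y => ⟨y.1, by simp [MulAction.mem_fixedBy, mul_smul, show g • (y.1 : X) = y.1 from y.2]⟩)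
      fun a b e => Subtype.ext (congrArg (fun z : MulAction.fixedBy X (g * g) => (z : X)) e)
    have h2G : 2 ∣ Nat.card G := by
      refine (dvd_mul_right 2 p).trans ?_
      rw [← h.nat_card_X, ← MulAction.index_stabilizer_of_transitive G x₀]
      exact Subgroup.index_dvd_card _
    obtain ⟨t, ht⟩ := exists_prime_orderOf_dvd_card' 2 h2G
    have htt : t * t = 1 := by rw [← sq, ← ht, pow_orderOf_eq_one]
    have ht1 : t ≠ 1 := fun e => by rw [e, orderOf_one] at ht; omega
    have hlt : f t < f (t * t) := by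
      rw [htt]
      have e1 : f 1 = 2 * p := by
        show Nat.card (MulAction.fixedBy X (1 : G)) = _
        rw [← h.nat_card_X]
        exact Nat.card_congr (Equiv.subtypeUnivEquiv fun z => by simp)
      rw [e1, ← h.nat_card_X]
      refine lt_of_le_of_ne (Nat.card_le_card_of_injective _ Subtype.val_injective) fun e => ht1 ?_
      refine MulAction.toPerm_injective (α := G) (β := X) (Equiv.ext fun z => ?_)
      have hsurj : Function.Surjective (Subtype.val : MulAction.fixedBy X t → X) :=
        ((Nat.bijective_iff_injective_and_card _).2 ⟨Subtype.val_injective, e⟩).2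
      obtain ⟨y, rfl⟩ := hsurj z
      rw [MulAction.toPerm_apply, MulAction.toPerm_apply, one_smul]
      exact y.2
    have hlt' : ∑ g, f g < ∑ g, f (g * g) :=
      Finset.sum_lt_sum (fun g _ => hle g) ⟨t, Finset.mem_univ t, hlt⟩
    have hval : ((∑ g, f (g * g) : ℕ) : ℂ) =
        (Nat.card G : ℂ) * (1 + indicator (χ : G → ℂ) + indicator (θ : G → ℂ)) := by
      rw [indicator, indicator, mul_add, mul_add, mul_one, mul_inv_cancel_left₀ hG0,
        mul_inv_cancel_left₀ hG0, Nat.cast_sum, Finset.sum_congr rfl fun g _ => (hf (g * g)).symm,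
        Finset.sum_congr rfl fun g _ => hπ (g * g), Finset.sum_add_distrib, Finset.sum_add_distrib,
        Finset.sum_const, Finset.card_univ, ← Nat.card_eq_fintype_card, nsmul_one]
    rw [e] at hval
    have hbound : (∑ g, f (g * g)) ≤ Nat.card G := by
      rcases irr_trichotomy θ.2 with e' | e' | e' <;> rw [e'] at hval <;> ring_nf at hval
      · have : ((∑ g, f (g * g) : ℕ) : ℂ) = ((0 : ℕ) : ℂ) := by rw [hval]; simp
        exact (Nat.cast_inj.1 this).le.trans (Nat.zero_le _)
      · exact (Nat.cast_inj.1 hval).le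
      · exfalso
        have : (((∑ g, f (g * g)) + Nat.card G : ℕ) : ℂ) = ((0 : ℕ) : ℂ) := by
          push_cast
          push_cast at hval
          rw [hval]; ring
        have := Nat.cast_inj.1 this
        have := Nat.card_pos (α := G)
        omega
    omega
  -- the exceptional characters
  choose! η hη1 hηχ hηexp using hex
  have hηE : ∀ ψ, ψ ≠ 1 → ∀ g : G, (∀ y, y⁻¹ * g * y ∉ P) →
      (η ψ : G → ℂ) g = (χ : G → ℂ) g - 1 := fun ψ hψ g hg => by
    have := hηexp ψ hψ g
    rw [show vchar P ψ g = 0 from Induced.indFun_eq_zero_of_forall _ hg] at this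
    linear_combination -this
  have hηdeg : ∀ ψ, ψ ≠ 1 → charDegree (η ψ : G → ℂ) = p - 2 := fun ψ hψ => by
    refine charDegree_eq_of_map_one ?_
    have := hηexp ψ hψ 1
    rw [vchar_one, hχ1] at this
    rw [Nat.cast_sub (by omega), Nat.cast_ofNat]
    linear_combination -this
  have hvfun : ∀ ψ, ψ ≠ 1 →
      vchar P ψ = (oneChar G : G → ℂ) - (χ : G → ℂ) + (η ψ : G → ℂ) := fun ψ hψ =>
    funext fun g => by simp [hηexp ψ hψ g]
  have hinv : ∀ ψ : P →* ℂˣ, ψ ≠ 1 → ψ⁻¹ ≠ ψ := fun ψ hψ e => hψ (MonoidHom.ext fun a => by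
    have hcard : (ψ a) ^ p = 1 := by rw [← map_pow, ← hD.card, pow_card_eq_one', map_one]
    have hsq : (ψ a) ^ 2 = 1 := by
      rw [sq, mul_eq_one_iff_eq_inv]; exact (DFunLike.congr_fun e a).symm
    refine orderOf_eq_one_iff.1 (Nat.dvd_one.1 ?_)
    rw [← Nat.Coprime.gcd_eq_one ((Nat.coprime_primes hp.out Nat.prime_two).2 hD.odd)]
    exact Nat.dvd_gcd (orderOf_dvd_of_pow_eq_one hcard) (orderOf_dvd_of_pow_eq_one hsq))
  have hfib : ∀ ψ φ : P →* ℂˣ, ψ ≠ 1 → φ ≠ 1 → η φ = η ψ → φ = ψ ∨ φ = ψ⁻¹ := by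
    intro ψ φ hψ hφ e
    have e1 := classInner_vchar_vchar hD ψ φ hψ hφ
    have e2 := classInner_vchar_vchar hD ψ ψ hψ hψ
    rw [show vchar P φ = vchar P ψ by rw [hvfun φ hφ, hvfun ψ hψ, e], e2, if_pos rfl,
      if_neg (hinv ψ hψ)] at e1
    by_contra hne
    push Not at hne
    rw [if_neg hne.1, if_neg fun h' => hne.2 (by
      rw [← h']; exact MonoidHom.ext fun a => (inv_inv (φ a)).symm)] at e1
    norm_num at e1
  set Ψ := Finset.univ.erase (1 : P →* ℂˣ) with hΨ
  set S := Ψ.image η with hS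
  have hScard : p - 1 ≤ 2 * S.card := by
    have h1 : Ψ.card ≤ 2 * S.card := Finset.card_le_mul_card_image _ 2 fun z hz => by
      obtain ⟨ψ, hψ, rfl⟩ := Finset.mem_image.1 hz
      refine (Finset.card_le_card (t := {ψ, ψ⁻¹}) fun φ hφ => ?_).trans Finset.card_le_two
      simp only [Finset.mem_filter, hΨ, Finset.mem_erase, Finset.mem_univ, and_true] at hφ hψ
      rcases hfib ψ φ hψ hφ.1 hφ.2 with e | e <;> simp [e]
    have hcardP : Fintype.card (P →* ℂˣ) = p := by
      rw [← Nat.card_eq_fintype_card, card_monoidHom_units,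
        show commutator P = ⊥ by
          rw [commutator_def, Subgroup.commutator_eq_bot_iff_le_centralizer]
          intro a _
          rw [Subgroup.mem_centralizer_iff]
          exact fun b _ => mul_comm' b a,
        Subgroup.index_bot, hD.card]
    rwa [hΨ, Finset.card_erase_of_mem (Finset.mem_univ _), Finset.card_univ, hcardP] at h1
  -- the alternating square
  have hA := isCharacter_altSq (isCharacter_coe χ)
  obtain ⟨n, hn, hn'⟩ := exists_nat_coeff hA
  have hn0 : n (oneChar G) = 0 := by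
    have hval := hn' (oneChar G)
    have e1 : ∑ g : G, (χ : G → ℂ) g ^ 2 = (Nat.card G : ℂ) := by
      rw [← Int.cast_natCast (Nat.card G), ← hsum2, Int.cast_sum]
      exact Finset.sum_congr rfl fun g _ => by rw [hx, Int.cast_pow]
    have e2 : ∑ g : G, (χ : G → ℂ) (g * g) = (Nat.card G : ℂ) := by
      have := hind
      rwa [indicator, inv_mul_eq_iff_eq_mul₀ hG0, mul_one] at this
    simp only [classInner, oneChar_apply, map_one, mul_one, altSq, ← Finset.sum_div,
      Finset.sum_sub_distrib, e1, e2, sub_self, zero_div, mul_zero] at hval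
    exact_mod_cast hval.symm
  have hnη : ∀ ψ, ψ ≠ 1 → 1 ≤ n (η ψ) := fun ψ hψ => by
    have e : classInner (vchar P ψ) (altSq (χ : G → ℂ)) = 1 := by
      rw [classInner_vchar ψ (isClassFunction_of_isCharacter hA), ← classInner_sub_left]
      have : classInner ((oneChar P : P → ℂ) - (linChar ψ : P → ℂ))
          (fun a : P => altSq (χ : G → ℂ) a) =
          classInner ((oneChar P : P → ℂ) - (linChar ψ : P → ℂ)) (oneChar P : P → ℂ) := by
        simp only [classInner]
        congr 1
        refine Finset.sum_congr rfl fun a _ => ?_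
        rcases eq_or_ne a 1 with rfl | ha
        · simp
        · have ha' : (a : G) ≠ 1 := fun e => ha (Subtype.ext e)
          simp only [altSq, hχP _ a.2 ha',
            hχP _ (mul_mem a.2 a.2) (hD.sq_ne_one a.2 ha'), oneChar_apply]
          norm_num
      rw [this, classInner_sub_left, classInner_self,
        classInner_of_ne fun e => hψ ((linChar_eq_oneChar_iff ψ).1 e), sub_zero]
    rw [hvfun ψ hψ, classInner_add_left, classInner_sub_left,
      ← classInner_conj_symm (altSq (χ : G → ℂ)) (oneChar G : G → ℂ),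
      ← classInner_conj_symm (altSq (χ : G → ℂ)) (χ : G → ℂ),
      ← classInner_conj_symm (altSq (χ : G → ℂ)) (η ψ : G → ℂ), hn', hn', hn', hn0] at e
    simp only [map_natCast] at e
    push_cast at e
    have e2 : ((n (η ψ) : ℕ) : ℂ) = ((n χ + 1 : ℕ) : ℂ) := by push_cast; linear_combination e
    have := Nat.cast_inj.1 e2
    omega
  have hdegS : ∀ z ∈ S, charDegree (z : G → ℂ) = p - 2 := fun z hz => by
    obtain ⟨ψ, hψ, rfl⟩ := Finset.mem_image.1 hz
    simp only [hΨ, Finset.mem_erase] at hψ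
    exact hηdeg ψ hψ.1
  have hnS : ∀ z ∈ S, 1 ≤ n z := fun z hz => by
    obtain ⟨ψ, hψ, rfl⟩ := Finset.mem_image.1 hz
    simp only [hΨ, Finset.mem_erase] at hψ
    exact hnη ψ hψ.1
  have htot : 2 * ∑ z, n z * charDegree (z : G → ℂ) = (p - 1) * (p - 2) := by
    have h0 := congrFun hn 1
    have : ((2 * ∑ z, n z * charDegree (z : G → ℂ) : ℕ) : ℂ) = (((p - 1) * (p - 2) : ℕ) : ℂ) := by
      simp only [Finset.sum_apply, Pi.smul_apply, smul_eq_mul, altSq, one_mul, hχ1,
        ← coe_charDegree, ← Nat.cast_mul, ← Nat.cast_sum] at h0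
      rw [Nat.cast_mul 2, ← h0]
      push_cast [Nat.cast_sub (show 1 ≤ p by omega), Nat.cast_sub (show 2 ≤ p by omega)]
      ring
    exact_mod_cast this
  have hsplit := Finset.sum_add_sum_compl S (fun z => n z * charDegree (z : G → ℂ))
  have hSsum : S.card * (p - 2) ≤ ∑ z ∈ S, n z * charDegree (z : G → ℂ) := by
    rw [← smul_eq_mul, ← Finset.sum_const]
    exact Finset.sum_le_sum fun z hz => by
      rw [hdegS z hz]; exact Nat.le_mul_of_pos_left _ (hnS z hz)
  have hprod : (p - 1) * (p - 2) ≤ 2 * (S.card * (p - 2)) := by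
    rw [← mul_assoc]; exact Nat.mul_le_mul_right _ hScard
  have hzero : ∀ z ∉ S, n z = 0 := fun z hz => by
    have h0 : ∑ z ∈ Sᶜ, n z * charDegree (z : G → ℂ) = 0 := by omega
    exact (Nat.mul_eq_zero.1 (Finset.sum_eq_zero_iff.1 h0 z (Finset.mem_compl.2 hz))).resolve_right
      (charDegree_pos z).ne'
  have heq : 2 * (∑ z ∈ S, n z) = p - 1 := by
    have h0 : 2 * ((∑ z ∈ S, n z) * (p - 2)) = (p - 1) * (p - 2) := by
      have h1 : ∑ z ∈ S, n z * charDegree (z : G → ℂ) = (∑ z ∈ S, n z) * (p - 2) := by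
        rw [Finset.sum_mul]; exact Finset.sum_congr rfl fun z hz => by rw [hdegS z hz]
      omega
    rw [← mul_assoc] at h0
    exact Nat.eq_of_mul_eq_mul_right (by omega) h0
  have hstar : ∀ g : G, (∀ y, y⁻¹ * g * y ∉ P) →
      x (g * g) = x g ^ 2 - ((p : ℤ) - 1) * (x g - 1) := fun g hg => by
    have hval := congrFun hn g
    rw [Finset.sum_apply, ← Finset.sum_add_sum_compl S,
      Finset.sum_eq_zero (s := Sᶜ) fun z hz => by
        rw [hzero z (Finset.mem_compl.1 hz)]; simp,
      add_zero, Finset.sum_congr rfl (g := fun z => (n z : ℂ) * ((x g : ℂ) - 1)) fun z hz => by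
        obtain ⟨ψ, hψ, rfl⟩ := Finset.mem_image.1 hz
        simp only [hΨ, Finset.mem_erase] at hψ
        rw [Pi.smul_apply, smul_eq_mul, hηE ψ hψ.1 g hg, hx],
      ← Finset.sum_mul, ← Nat.cast_sum, altSq, hx, hx] at hval
    have hT' : ((2 * ∑ z ∈ S, n z : ℕ) : ℂ) = (p : ℂ) - 1 := by
      rw [heq, Nat.cast_sub (by omega), Nat.cast_one]
    have : ((x (g * g) : ℤ) : ℂ) = ((x g ^ 2 - ((p : ℤ) - 1) * (x g - 1) : ℤ) : ℂ) := by
      push_cast at hval hT' ⊢
      linear_combination -2 * hval - ((x g : ℂ) - 1) * hT'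
    exact_mod_cast this
  refine ⟨x, χ, hx, hx1, hT, hstar, hsum0, hsum2, fun a₀ => ?_⟩
  have hπfun : fixChar G X = (oneChar G : G → ℂ) + (χ : G → ℂ) + (θ : G → ℂ) :=
    funext fun g => by simp [hπ g]
  have hrank : Nat.card (MulAction.orbitRel.Quotient (MulAction.stabilizer G a₀) X) = 3 := by
    have h3 := classInner_fixChar_self (G := G) (Ω := X) a₀
    rw [hπfun] at h3
    have e : classInner ((oneChar G : G → ℂ) + (χ : G → ℂ) + (θ : G → ℂ))
        ((oneChar G : G → ℂ) + (χ : G → ℂ) + (θ : G → ℂ)) = 3 := by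
      have hc : ∀ z : IrrCharacter G, classInner (z : G → ℂ)
          ((oneChar G : G → ℂ) + (χ : G → ℂ) + (θ : G → ℂ)) =
          (if oneChar G = z then 1 else 0) + (if χ = z then 1 else 0) + (if θ = z then 1 else 0) :=
        fun z => by
          rw [← classInner_conj_symm, classInner_add_left, classInner_add_left, classInner_irr,
            classInner_irr, classInner_irr]
          split_ifs <;> simp <;> norm_num
      rw [classInner_add_left, classInner_add_left, hc, hc, hc]
      simp [hχne, hθne, hθχ, Ne.symm hχne, Ne.symm hθne, Ne.symm hθχ]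
      norm_num
    rw [e] at h3
    exact_mod_cast h3.symm
  obtain ⟨a, ha, hpa, hsub⟩ := Cfsg.Agent.S0719.result h.prim h.cardX a₀ hrank (χ : G → ℂ)
    (θ : G → ℂ) χ.2 θ.2 (funext fun g => hπ g) hχ1 hθ1
  refine ⟨a, ha, hpa, ?_⟩
  obtain ⟨b, hb⟩ := Fintype.exists_ne_of_one_lt_card
    (show 1 < Fintype.card X by rw [h.cardX]; omega) a₀
  have hd : Nat.card (MulAction.orbit (MulAction.stabilizer G a₀) b) ∣
      Nat.card (MulAction.stabilizer G a₀) := by
    rw [← Nat.card_congr (MulAction.orbitProdStabilizerEquivGroup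
      (MulAction.stabilizer G a₀) b), Nat.card_prod]
    exact dvd_mul_right _ _
  rcases hsub b hb with e | e <;> rw [e] at hd
  · exact (dvd_mul_left _ _).trans hd
  · exact (dvd_mul_left _ _).trans hd

omit h hp in
theorem sum_sq_sub_self {T : G → Prop} [DecidablePred T] {x : G → ℤ} (hT1 : ¬ T 1)
    (h : ∀ g, g ≠ 1 → if T g then x g = -1 else x g = 0 ∨ x g = 1) :
    ∑ g, (x g ^ 2 - x g) = x 1 ^ 2 - x 1 + 2 * ((Finset.univ.filter T).card : ℤ) := by
  classical
  have e : ∀ g, x g ^ 2 - x g =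
      (if g = 1 then x 1 ^ 2 - x 1 else 0) + if T g then 2 else 0 := fun g => by
    rcases eq_or_ne g 1 with rfl | hg
    · rw [if_pos rfl, if_neg hT1, add_zero]
    · have := h g hg
      by_cases hTg : T g
      · rw [if_pos hTg] at this
        rw [if_neg hg, if_pos hTg, this]; norm_num
      · rw [if_neg hTg] at this
        rw [if_neg hg, if_neg hTg]
        rcases this with e' | e' <;> rw [e'] <;> norm_num
  rw [Finset.sum_congr rfl fun g _ => e g, Finset.sum_add_distrib,
    Finset.sum_ite_eq' Finset.univ (1 : G), if_pos (Finset.mem_univ _), ← Finset.sum_filter,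
    Finset.sum_const, nsmul_eq_mul, mul_comm]

/-- The degree is ten and the order is sixty. -/
theorem eq_five_and_card : p = 5 ∧ Nat.card G = 60 ∧ Nat.card (Sylow p G) = 6 := by
  classical
  haveI := h.prim
  haveI := h.faith
  have hD := h.dih
  have hp5 := h.five
  haveI := Fintype.ofFinite P
  obtain ⟨x, χ, hx, hx1, hT, hstar, hsum0, hsum2, hS19⟩ := h.exists_int_char
  obtain ⟨x₀⟩ : Nonempty X := Fintype.card_pos_iff.1 (by rw [h.cardX]; omega)
  obtain ⟨a, ha, hpa, hadvd⟩ := hS19 x₀
  have hχc := isCharacter_coe χ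
  set hh := Nat.card (MulAction.stabilizer G x₀) with hhdef
  have hG : Nat.card G = 2 * p * hh := by
    rw [← (MulAction.stabilizer G x₀).card_mul_index, MulAction.index_stabilizer_of_transitive,
      h.nat_card_X, ← hhdef, mul_comm]
  have hidxP : P.index = 2 * hh := by
    have h0 := P.card_mul_index
    rw [hD.card, hG] at h0
    exact Nat.eq_of_mul_eq_mul_left hp.out.pos (h0.trans (by ring))
  -- bounds
  have hupper : ∀ g, x g ≤ (p : ℤ) - 1 := fun g => by
    have h0 := norm_apply_le hχc g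
    rw [hx, hx, hx1, Complex.norm_intCast, Complex.norm_intCast] at h0
    have h1 : |x g| ≤ |(p : ℤ) - 1| := by exact_mod_cast h0
    rw [abs_of_nonneg (show (0 : ℤ) ≤ (p : ℤ) - 1 by omega)] at h1
    exact (le_abs_self _).trans h1
  have hdef : ∀ g, 4 * x g - 3 * ((p : ℤ) - 1) ≤ x (g * g) := by
    intro g
    obtain ⟨s, hs1, hs2, hs3⟩ := exists_roots hχc g
    have e1 : (χ : G → ℂ) g = s.sum := by
      have := hs3 1
      simpa using this
    have e2 : (χ : G → ℂ) (g * g) = (s.map (· ^ 2)).sum := by rw [← sq]; exact hs3 2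
    have hre : ∀ t : Multiset ℂ, (∀ z ∈ t, ‖z‖ = 1) →
        4 * t.sum.re - 3 * (t.card : ℝ) ≤ (t.map (· ^ 2)).sum.re := by
      intro t ht
      induction t using Multiset.induction with
      | empty => simp
      | cons z t ih =>
        have hz := ht z (Multiset.mem_cons_self z t)
        have hzz : z.re * z.re + z.im * z.im = 1 := by
          rw [← Complex.normSq_apply, Complex.normSq_eq_norm_sq, hz, one_pow]
        have := ih fun w hw => ht w (Multiset.mem_cons_of_mem hw)
        simp only [Multiset.map_cons, Multiset.sum_cons, Multiset.card_cons, Complex.add_re,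
          Nat.cast_add, Nat.cast_one, sq, Complex.mul_re] at this ⊢
        nlinarith [sq_nonneg (z.re - 1)]
    have h0 := hre s fun z hz => norm_eq_one_of_pow_orderOf (hs1 z hz)
    rw [← e1, ← e2, hx, hx] at h0
    have hcard : (s.card : ℂ) = (((p : ℤ) - 1 : ℤ) : ℂ) := by rw [hs2, hx, hx1]
    have hcard' : (s.card : ℤ) = (p : ℤ) - 1 := by exact_mod_cast hcard
    simp only [Complex.intCast_re] at h0
    rw [show (s.card : ℝ) = (((s.card : ℤ)) : ℝ) by simp, hcard'] at h0
    exact_mod_cast h0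
  have hlow : ∀ g, (∀ y, y⁻¹ * g * y ∉ P) → 0 ≤ x g := fun g hg => by
    by_contra hneg
    push Not at hneg
    have h1 := hstar g hg
    have h2 := hupper (g * g)
    nlinarith
  have hfaith : ∀ g, x g = (p : ℤ) - 1 → g = 1 := by
    have hK : charKer (χ : G → ℂ) = ⊥ := by
      haveI := charKer_normal (isClassFunction_coe χ)
      refine eq_bot_of_not_dvd (X := X) (p := p) (h.cardX ▸ dvd_mul_left _ _) _ fun hd => ?_
      obtain ⟨t, ht⟩ := exists_prime_orderOf_dvd_card' p hd
      rw [← Subgroup.orderOf_coe] at ht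
      obtain ⟨y, hy⟩ := h.exists_conj_mem ht
      have h1 := hT _ y hy fun e => by rw [e, orderOf_one] at ht; omega
      have h2 := (mem_charKer_iff hχc).1 t.2
      rw [hx, hx, h1, hx1] at h2
      have h3 : (-1 : ℤ) = (p : ℤ) - 1 := by exact_mod_cast h2
      omega
    intro g hg
    have : g ∈ charKer (χ : G → ℂ) := (mem_charKer_iff hχc).2 (by rw [hx, hx, hg, hx1])
    rwa [hK, Subgroup.mem_bot] at this
  have hle4 : ∀ g, g ≠ 1 → (∀ y, y⁻¹ * g * y ∉ P) → x g ≤ 4 := fun g hg1 hg => by
    by_contra hgt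
    push Not at hgt
    have h0 := hlow g hg
    have h1 := hdef g
    rw [hstar g hg] at h1
    have h2 := hupper g
    have h3 : x g ≠ (p : ℤ) - 1 := fun e => hg1 (hfaith g e)
    nlinarith [mul_le_mul_of_nonneg_left (show x g + 1 ≤ (p : ℤ) - 1 by omega)
      (show 0 ≤ x g - 4 by omega)]
  -- the parameter is one
  have ha1 : a = 1 := by
    by_contra hne
    have hp13 : 13 ≤ p := by
      have : 4 ≤ a ^ 2 := Nat.pow_le_pow_left (show 2 ≤ a by omega) 2
      omega
    have hlowall : ∀ g, -1 ≤ x g := fun g => by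
      by_cases hg : ∀ y, y⁻¹ * g * y ∉ P
      · exact (by norm_num : (-1 : ℤ) ≤ 0).trans (hlow g hg)
      · push Not at hg
        obtain ⟨y, hy⟩ := hg
        rcases eq_or_ne g 1 with rfl | hg1
        · rw [hx1]; omega
        · exact (hT g y hy hg1).ge
    have h01 : ∀ g, g ≠ 1 → (∀ y, y⁻¹ * g * y ∉ P) → x g = 0 ∨ x g = 1 := fun g hg1 hg => by
      have h0 := hlow g hg
      have h1 := hle4 g hg1 hg
      have h2 := hlowall (g * g)
      rw [hstar g hg] at h2
      have hp' : (13 : ℤ) ≤ p := by exact_mod_cast hp13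
      rcases le_or_gt (x g) 1 with h3 | h3
      · omega
      · exfalso
        nlinarith
    let T : G → Prop := fun g => g ≠ 1 ∧ ∃ y, y⁻¹ * g * y ∈ P
    have hTcard : ((Finset.univ.filter T).card : ℤ) = ((p : ℤ) - 1) * hh := by
      let δ : P → ℂ := fun b => if b = 1 then 0 else 1
      have hval : ∀ g : G, indFun P δ g = if T g then 2 else 0 := by
        intro g
        rcases eq_or_ne g 1 with rfl | hg1
        · rw [Induced.indFun_one_apply, if_neg fun hh => hh.1 rfl]
          simp [δ]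
        by_cases hy : ∃ y, y⁻¹ * g * y ∈ P
        · obtain ⟨y, hy⟩ := hy
          have hne : y⁻¹ * g * y ≠ 1 := fun e => hg1 (by
            have := congrArg (fun t => y * t * y⁻¹) e
            simpa [mul_assoc] using this)
          rw [if_pos ⟨hg1, y, hy⟩, ← Induced.classFun_inv_conj (Induced.indFun_isClassFunction P δ) y g,
            hD.indFun_apply δ hy hne]
          simp only [δ]
          rw [if_neg fun e => hne (congrArg Subtype.val e),
            if_neg fun e => hne (inv_eq_one.1 (congrArg Subtype.val e))]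
          norm_num
        · rw [if_neg fun hh => hy hh.2]
          exact Induced.indFun_eq_zero_of_forall δ fun y hy' => hy ⟨y, hy'⟩
      have h0 := Induced.sum_indFun_mul P δ (F := fun _ => 1) fun _ _ => rfl
      simp only [hval, mul_one] at h0
      rw [← Finset.sum_filter, Finset.sum_const, nsmul_eq_mul] at h0
      have h1 : ∑ b : P, δ b = (p : ℂ) - 1 := by
        simp only [δ]
        rw [← Finset.sum_filter_add_sum_filter_not Finset.univ (fun b : P => b = 1)]
        rw [Finset.sum_eq_zero fun b hb => if_pos (Finset.mem_filter.1 hb).2,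
          Finset.sum_congr rfl fun b hb => if_neg (Finset.mem_filter.1 hb).2, Finset.sum_const,
          zero_add, nsmul_one, Finset.filter_ne', Finset.card_erase_of_mem (Finset.mem_univ _),
          Finset.card_univ, ← Nat.card_eq_fintype_card, hD.card, Nat.cast_sub hp.out.pos]
        simp
      rw [h1, hidxP] at h0
      have : (((Finset.univ.filter T).card : ℤ) : ℂ) = ((((p : ℤ) - 1) * hh : ℤ) : ℂ) := by
        push_cast at h0 ⊢
        linear_combination h0 / 2
      exact_mod_cast this
    have hcases : ∀ g, g ≠ 1 → if T g then x g = -1 else x g = 0 ∨ x g = 1 := fun g hg => by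
      by_cases hTg : T g
      · rw [if_pos hTg]
        obtain ⟨y, hy⟩ := hTg.2
        exact hT g y hy hg
      · rw [if_neg hTg]
        exact h01 g hg fun y hy => hTg ⟨hg, y, hy⟩
    have hsum := sum_sq_sub_self (fun hh => hh.1 rfl) hcases
    rw [Finset.sum_sub_distrib, hsum2, hsum0, hx1, hTcard, hG] at hsum
    push_cast at hsum
    have hkey : 2 * (hh : ℤ) = ((p : ℤ) - 1) * ((p : ℤ) - 2) := by linear_combination hsum
    obtain ⟨c, hc⟩ := hadvd
    have hk : ((2 * a + 1 : ℕ) : ℤ) ∣ 3 := by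
      have hpa' : (p : ℤ) = 2 * (a : ℤ) ^ 2 + 2 * a + 1 := by exact_mod_cast hpa
      have hc' : (hh : ℤ) = (2 * (a : ℤ) + 1) * c := by exact_mod_cast hc
      refine ⟨8 * c - (2 * (a : ℤ) + 1) ^ 3 + 4 * (2 * (a : ℤ) + 1), ?_⟩
      rw [hc', hpa'] at hkey
      push_cast
      linear_combination -4 * hkey
    have hk' : 2 * a + 1 ∣ 3 := by exact_mod_cast hk
    have := Nat.le_of_dvd (by norm_num) hk'
    omega
  subst ha1
  norm_num at hpa hadvd
  subst hpa
  -- degree ten
  have hE : ∀ g : G, g ≠ 1 → (¬ 5 ∣ orderOf g) → ∀ y, y⁻¹ * g * y ∉ P := fun g hg hd y hy => by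
    refine hd ?_
    have h0 : orderOf (y⁻¹ * g * y) = orderOf g := by
      have := MulEquiv.orderOf_eq (MulAut.conj y⁻¹) g
      simpa using this
    rcases (Nat.dvd_prime hp.out).1 (hD.card ▸ Subgroup.orderOf_dvd_natCard P hy) with e | e
    · rw [h0, orderOf_eq_one_iff] at e; exact absurd e hg
    · rw [← h0, e]
  have hrel : ∀ g : G, g ≠ 1 → (¬ 5 ∣ orderOf g) →
      x (g * g) = (x g - 2) ^ 2 ∧ 0 ≤ x g ∧ x g ≤ 3 := fun g hg hd => by
    have h0 := hstar g (hE g hg hd)
    have h1 := hlow g (hE g hg hd)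
    have h2 := hle4 g hg (hE g hg hd)
    have h3 : x g ≠ 4 := fun e => hg (hfaith g (by rw [e]; norm_num))
    refine ⟨by rw [h0]; push_cast; ring, h1, by omega⟩
  have hres : ∀ Q : Subgroup G, ∀ _ : Fintype Q, ∃ k l : ℕ,
      ∑ g : Q, x g = (Nat.card Q : ℤ) * k ∧ ∑ g : Q, x g ^ 2 = (Nat.card Q : ℤ) * l := by
    intro Q _
    obtain ⟨k, hk⟩ := exists_nat_classInner (isCharacter_restrict hχc Q) (oneChar Q)
    obtain ⟨l, hl⟩ := exists_nat_classInner' (isCharacter_restrict hχc Q)
      (isCharacter_restrict hχc Q)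
    have hQ0 : (Nat.card Q : ℂ) ≠ 0 := natCard_ne_zero
    simp only [classInner, oneChar_apply, map_one, mul_one, hx,
      inv_mul_eq_iff_eq_mul₀ hQ0] at hk
    simp only [classInner, hx, map_intCast, inv_mul_eq_iff_eq_mul₀ hQ0] at hl
    refine ⟨k, l, ?_, ?_⟩
    · exact_mod_cast hk
    · simp only [← sq] at hl
      exact_mod_cast hl
  have hdvd : Nat.card G ∣ 120 := by
    rw [Nat.dvd_iff_prime_pow_dvd_dvd]
    intro l k hl hlk
    haveI : Fact l.Prime := ⟨hl⟩
    obtain ⟨Q, hQ⟩ := Sylow.exists_subgroup_card_pow_prime l hlk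
    haveI := Fintype.ofFinite Q
    obtain ⟨k₁, k₂, hk₁, hk₂⟩ := hres Q inferInstance
    rw [← hQ]
    rcases eq_or_ne l 5 with rfl | hl5
    · rcases le_or_gt k 1 with hk1 | hk1
      · rw [hQ]; exact (pow_dvd_pow 5 hk1).trans (by norm_num)
      · exfalso
        refine h.ndvd (Nat.dvd_of_mul_dvd_mul_left (show 0 < 5 by norm_num) ?_)
        have h0 := P.card_mul_index
        rw [hD.card] at h0
        rw [h0]
        exact ((pow_two 5).symm ▸ (pow_dvd_pow 5 hk1) : 5 * 5 ∣ 5 ^ k).trans hlk
    have hd5 : ∀ g ∈ Q, ¬ 5 ∣ orderOf g := fun g hg hd => by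
      have h1 := hd.trans (hQ ▸ Subgroup.orderOf_dvd_natCard Q hg)
      exact hl5 ((Nat.prime_dvd_prime_iff_eq (by norm_num) hl).1
        ((show Nat.Prime 5 by norm_num).dvd_of_dvd_pow h1)).symm
    rcases eq_or_ne l 2 with rfl | hl2
    · have hind : ∀ N : ℕ, ∀ g ∈ Q, orderOf g = N → g ≠ 1 → x g = 0 ∨ x g = 2 := by
        intro N
        induction N using Nat.strong_induction_on with
        | _ N ih =>
          intro g hg hN hg1
          obtain ⟨h1, h2, h3⟩ := hrel g hg1 (hd5 g hg)
          rcases eq_or_ne (g * g) 1 with e | e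
          · rw [e, hx1] at h1
            have : x g = 0 ∨ x g = 1 ∨ x g = 2 ∨ x g = 3 := by omega
            rcases this with e' | e' | e' | e' <;> rw [e'] at h1 ⊢ <;>
              first | (simp; done) | norm_num at h1
          · have hlt : orderOf (g * g) < N := by
              subst hN
              obtain ⟨j, -, hj⟩ := (Nat.dvd_prime_pow Nat.prime_two).1
                (hQ ▸ Subgroup.orderOf_dvd_natCard Q hg)
              have hj0 : j ≠ 0 := fun e0 => by
                rw [e0, pow_zero, orderOf_eq_one_iff] at hj; exact hg1 hj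
              rw [← sq, orderOf_pow_of_dvd (by norm_num) (hj ▸ dvd_pow_self 2 hj0)]
              exact Nat.div_lt_self (orderOf_pos g) (by norm_num)
            have h4 := ih _ hlt (g * g) (mul_mem hg hg) rfl e
            rw [h1] at h4
            have : x g = 0 ∨ x g = 1 ∨ x g = 2 ∨ x g = 3 := by omega
            rcases this with e' | e' | e' | e' <;> rw [e'] at h4 ⊢ <;>
              first | (simp; done) | norm_num at h4
      have h8 : ∑ g : Q, (x g ^ 2 - 2 * x g) = 8 := by
        rw [Finset.sum_eq_single (1 : Q) (fun g _ hg => by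
          rcases hind _ g g.2 rfl (fun e => hg (Subtype.ext e)) with e | e <;> rw [e] <;> norm_num)
          fun hh => absurd (Finset.mem_univ _) hh, OneMemClass.coe_one, hx1]
        norm_num
      rw [Finset.sum_sub_distrib, ← Finset.mul_sum, hk₁, hk₂] at h8
      have : ((Nat.card Q : ℕ) : ℤ) ∣ ((8 : ℕ) : ℤ) :=
        ⟨(k₂ : ℤ) - 2 * k₁, by push_cast; linear_combination -h8⟩
      exact (Int.natCast_dvd_natCast.1 this).trans (by norm_num)
    · have hodd : Odd (Nat.card Q) := hQ ▸ (hl.odd_of_ne_two hl2).pow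
      have hcop : (Nat.card Q).Coprime 2 := Nat.coprime_two_right.2 hodd
      have hsq : ∀ g ∈ Q, g ≠ 1 → g * g ≠ 1 := fun g hg hg1 e => hg1 (by
        refine orderOf_eq_one_iff.1 (Nat.dvd_one.1 ?_)
        rw [← hcop.gcd_eq_one]
        exact Nat.dvd_gcd (Subgroup.orderOf_dvd_natCard Q hg)
          (orderOf_dvd_of_pow_eq_one (by rw [sq, e])))
      have h13 : ∀ g ∈ Q, g ≠ 1 → x g = 1 ∨ x g = 3 := fun g hg hg1 => by
        obtain ⟨h1, h2, h3⟩ := hrel g hg1 (hd5 g hg)
        obtain ⟨h4, h5, h6⟩ := hrel (g * g) (hsq g hg hg1) (hd5 _ (mul_mem hg hg))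
        have h7 := hfaith (g * g * (g * g))
        have : x g = 0 ∨ x g = 1 ∨ x g = 2 ∨ x g = 3 := by omega
        rcases this with e | e | e | e
        · exfalso; rw [e] at h1; norm_num at h1; omega
        · exact Or.inl e
        · exfalso
          rw [e] at h1
          norm_num at h1
          rw [h1] at h4
          norm_num at h4
          exact hsq _ (mul_mem hg hg) (hsq g hg hg1) (h7 (by rw [h4]; norm_num))
        · exact Or.inr e
      have hone : ∀ g ∈ Q, g ≠ 1 → x g = 1 := fun g hg hg1 => by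
        obtain ⟨y, hy⟩ := (powCoprime hcop).surjective (⟨g, hg⟩ : Q)
        have hy' : (y : G) * y = g := by
          rw [← sq]; exact congrArg Subtype.val hy
        have hy1 : (y : G) ≠ 1 := fun e => hg1 (by rw [← hy', e, one_mul])
        have h1 := (hrel y hy1 (hd5 _ y.2)).1
        rw [hy'] at h1
        rcases h13 y y.2 hy1 with e | e <;> rw [e] at h1 <;> simpa using h1
      have h3 : ∑ g : Q, (x g - 1) = 3 := by
        rw [Finset.sum_eq_single (1 : Q) (fun g _ hg => by
          rw [hone g g.2 fun e => hg (Subtype.ext e), sub_self])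
          fun hh => absurd (Finset.mem_univ _) hh, OneMemClass.coe_one, hx1]
        norm_num
      rw [Finset.sum_sub_distrib, hk₁, Finset.sum_const, Finset.card_univ,
        ← Nat.card_eq_fintype_card, nsmul_one] at h3
      have : ((Nat.card Q : ℕ) : ℤ) ∣ ((3 : ℕ) : ℤ) :=
        ⟨(k₁ : ℤ) - 1, by push_cast; linear_combination -h3⟩
      exact (Int.natCast_dvd_natCast.1 this).trans (by norm_num)
  rw [hG] at hdvd
  have hh12 : hh ∣ 12 := Nat.dvd_of_mul_dvd_mul_left (show 0 < 10 by norm_num) hdvd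
  have hsyl : Nat.card (Sylow 5 G) = hh := by
    let S : Sylow 5 G := IsPGroup.toSylow (IsPGroup.of_card (n := 1) (by rw [pow_one, hD.card]))
      h.ndvd
    have h0 : (Subgroup.normalizer (P : Set G)).index = hh := by
      have h1 := (Subgroup.normalizer (P : Set G)).card_mul_index
      rw [hD.cnorm, hG] at h1
      exact Nat.eq_of_mul_eq_mul_left (by norm_num) h1
    rw [S.card_eq_index_normalizer]
    exact h0
  have hmod := card_sylow_modEq_one 5 G
  rw [hsyl, Nat.ModEq] at hmod
  have hle := Nat.le_of_dvd (by norm_num) hh12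
  have h6 : hh = 6 := by
    obtain ⟨c, hc⟩ := hadvd
    omega
  exact ⟨rfl, by rw [hG, h6], hsyl.trans h6⟩

end TwoPrime

end CfsgLib.Chars.Ito
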